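import Cfsg.Agent.Lib.Helper6.X23.Defs

/-! X23 farm, piece ABa (helper81). -/

set_option autoImplicit false
set_option linter.unusedSectionVars false
set_option linter.unusedFintypeInType false

namespace Cfsg.Agent.Lib.Helper6.X23

open Cfsg Cfsg.Geo Matrix Cfsg.Agent.Lib.Helper13.Asch Cfsg.Agent.Lib.Helper5.SUAsch
  Cfsg.Agent.Lib.Helper9.AschU Cfsg.Agent.Lib.Helper21.Asch
open scoped Kronecker MatrixGroups

variable {F : Type*} [Field F] [Fintype F]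

section gen

variable {ι : Type} [Fintype ι] [DecidableEq ι]

theorem ABa_scalar_central {z : GL ι F} (hz : z ∈ scalars ι F) (g : GL ι F) : z * g = g * z := by
  obtain ⟨c, hc⟩ := (mem_scalars_iff z).1 hz
  apply Units.ext
  rw [Units.val_mul, Units.val_mul, hc, smul_mul_assoc, one_mul, mul_smul_comm, mul_one]

/-- the subgroup of elements commuting with `y` modulo scalars -/
def ABa_commZ (y : GL ι F) : Subgroup (GL ι F) where
  carrier := {x | x * y * x⁻¹ * y⁻¹ ∈ scalars ι F}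
  one_mem' := by
    show (1 : GL ι F) * y * 1⁻¹ * y⁻¹ ∈ scalars ι F
    have : (1 : GL ι F) * y * 1⁻¹ * y⁻¹ = 1 := by group
    rw [this]; exact Subgroup.one_mem _
  mul_mem' := by
    intro a b ha hb
    have ha' : a * y * a⁻¹ * y⁻¹ ∈ scalars ι F := ha
    have hb' : b * y * b⁻¹ * y⁻¹ ∈ scalars ι F := hb
    have e : a * b * y * (a * b)⁻¹ * y⁻¹ = (b * y * b⁻¹ * y⁻¹) * (a * y * a⁻¹ * y⁻¹) := by
      have := ABa_scalar_central hb' a
      calc a * b * y * (a * b)⁻¹ * y⁻¹ = a * (b * y * b⁻¹ * y⁻¹) * (y * a⁻¹ * y⁻¹) := by group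
        _ = (b * y * b⁻¹ * y⁻¹) * a * (y * a⁻¹ * y⁻¹) := by rw [this]
        _ = _ := by group
    show a * b * y * (a * b)⁻¹ * y⁻¹ ∈ scalars ι F
    rw [e]; exact Subgroup.mul_mem _ hb' ha'
  inv_mem' := by
    intro a ha
    have ha' : a * y * a⁻¹ * y⁻¹ ∈ scalars ι F := ha
    have e : a⁻¹ * y * a⁻¹⁻¹ * y⁻¹ = (a * y * a⁻¹ * y⁻¹)⁻¹ := by
      have := ABa_scalar_central (Subgroup.inv_mem _ ha') a⁻¹
      calc a⁻¹ * y * a⁻¹⁻¹ * y⁻¹ = a⁻¹ * (a * y * a⁻¹ * y⁻¹)⁻¹ * a := by group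
        _ = (a * y * a⁻¹ * y⁻¹)⁻¹ * a⁻¹ * a := by rw [this]
        _ = _ := by group
    show a⁻¹ * y * a⁻¹⁻¹ * y⁻¹ ∈ scalars ι F
    rw [e]; exact Subgroup.inv_mem _ ha'

theorem ABa_mem_commZ {x y : GL ι F} : x ∈ ABa_commZ y ↔ x * y * x⁻¹ * y⁻¹ ∈ scalars ι F := Iff.rfl

theorem ABa_commZ_symm {x y : GL ι F} (h : x ∈ ABa_commZ y) : y ∈ ABa_commZ x := by
  rw [ABa_mem_commZ] at h ⊢
  have : y * x * y⁻¹ * x⁻¹ = (x * y * x⁻¹ * y⁻¹)⁻¹ := by group
  rw [this]; exact Subgroup.inv_mem _ h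

theorem ABa_phiG_scalar {t : ℕ} (φ : Fin t → Matrix (Fin 3) (Fin 3) F →ₐ[F] Matrix ι ι F) (i : Fin t)
    {x : GL (Fin 3) F} (hx : x ∈ scalars (Fin 3) F) : phiG φ i x ∈ scalars ι F := by
  obtain ⟨c, hc⟩ := (mem_scalars_iff x).1 hx
  rw [mem_scalars_iff]
  exact ⟨c, by rw [phiG_coe, hc, map_smul, map_one]⟩

theorem ABa_scalar_cube (hF : Fintype.card F = 2 ^ 2) {z : GL ι F} (hz : z ∈ scalars ι F) :
    z ^ 3 = 1 := by
  obtain ⟨c, rfl⟩ := hz
  have hc : c ^ 3 = 1 := by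
    apply Units.ext
    have := FiniteField.pow_card_sub_one_eq_one (c : F) c.ne_zero
    rw [hF] at this
    simpa using this
  rw [← map_pow, hc, map_one]

end gen

theorem ABa_mul_pow3 {G : Type*} [Group G] (x y z : G) (hz : z = y * x * y⁻¹ * x⁻¹)
    (hc : ∀ g, z * g = g * z) : (x * y) ^ 3 = z ^ 3 * (x ^ 3 * y ^ 3) := by
  have hyx : y * x = z * (x * y) := by rw [hz]; group
  have hc' : ∀ g, g * z = z * g := fun g => (hc g).symm
  calc (x * y) ^ 3 = x * (y * x) * (y * x) * y := by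
        simp only [pow_succ, pow_zero, one_mul, mul_assoc]
    _ = x * (z * (x * y)) * (z * (x * y)) * y := by rw [hyx]
    _ = (x * z) * x * (y * z) * x * y * y := by simp only [mul_assoc]
    _ = (z * x) * x * (z * y) * x * y * y := by rw [hc' x, hc' y]
    _ = z * ((x * x) * z) * (y * x) * y * y := by simp only [mul_assoc]
    _ = z * (z * (x * x)) * (z * (x * y)) * y * y := by rw [hc' (x * x), hyx]
    _ = z * z * ((x * x) * z) * x * y * y * y := by simp only [mul_assoc]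
    _ = z * z * (z * (x * x)) * x * y * y * y := by rw [hc' (x * x)]
    _ = z ^ 3 * (x ^ 3 * y ^ 3) := by simp only [pow_succ, pow_zero, one_mul, mul_assoc]

variable {n t : ℕ} {φ : Fin t → Matrix (Fin 3) (Fin 3) F →ₐ[F] Matrix (Fin n) (Fin n) F}
  {E : Subgroup (GL (Fin 3) F)} {Fo : GL (Fin 3) F}

theorem Rg_le_GU (hF : Fintype.card F = 2 ^ 2) (hφ : Frame 2 φ) (hE : E3Data 2 E Fo) :
    Rg φ E ≤ GU n F 2 := by
  unfold Rg
  apply iSup_le
  rintro i _ ⟨x, hx, rfl⟩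
  rw [mem_GU_iff_adj hF, phiG_coe, hφ.star, ← map_mul, hE.unit x hx, map_one]

theorem Rg_comm (hφ : Frame 2 φ) (hE : E3Data 2 E Fo) :
    ∀ x ∈ Rg φ E, ∀ y ∈ Rg φ E, x * y * x⁻¹ * y⁻¹ ∈ scalars (Fin n) F := by
  have gen : ∀ i j, ∀ a ∈ E, ∀ b ∈ E, phiG φ i a ∈ ABa_commZ (phiG φ j b) := by
    intro i j a ha b hb
    rw [ABa_mem_commZ]
    by_cases hij : i = j
    · subst hij
      rw [← map_mul, ← map_inv, ← map_mul, ← map_inv, ← map_mul]
      exact ABa_phiG_scalar φ i (hE.comm a ha b hb)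
    · have hc : phiG φ i a * phiG φ j b = phiG φ j b * phiG φ i a := by
        apply Units.ext
        simp only [Units.val_mul, phiG_coe]
        exact hφ.comm i j hij _ _
      rw [hc]
      have : phiG φ j b * phiG φ i a * (phiG φ i a)⁻¹ * (phiG φ j b)⁻¹ = 1 := by group
      rw [this]; exact Subgroup.one_mem _
  have step1 : ∀ j, ∀ b ∈ E, Rg φ E ≤ ABa_commZ (phiG φ j b) := by
    intro j b hb
    unfold Rg
    apply iSup_le
    rintro i _ ⟨a, ha, rfl⟩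
    exact gen i j a ha b hb
  intro x hx
  have step2 : Rg φ E ≤ ABa_commZ x := by
    unfold Rg
    apply iSup_le
    rintro j _ ⟨b, hb, rfl⟩
    exact ABa_commZ_symm (step1 j b hb hx)
  intro y hy
  exact ABa_commZ_symm (step2 hy)

theorem Rg_exp (hF : Fintype.card F = 2 ^ 2) (hφ : Frame 2 φ) (hE : E3Data 2 E Fo) :
    ∀ x ∈ Rg φ E, x ^ 3 = 1 := by
  intro x hx
  have hcomm := Rg_comm hφ hE
  refine Subgroup.iSup_induction' (fun i => E.map (phiG φ i)) (C := fun x _ => x ^ 3 = 1)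
    ?_ ?_ ?_ hx
  · rintro i _ ⟨a, ha, rfl⟩
    rw [← map_pow, hE.exp a ha, map_one]
  · exact one_pow 3
  · intro x y hx hy ihx ihy
    have hz := hcomm y hy x hx
    rw [ABa_mul_pow3 x y _ rfl (fun g => ABa_scalar_central hz g), ABa_scalar_cube hF hz, ihx, ihy]
    simp

theorem Rg_env (hφ : Frame 2 φ) (hE : E3Data 2 E Fo) : env (Rg φ E) = ⊤ := by
  rw [eq_top_iff, ← hφ.top]
  apply Algebra.adjoin_le
  rintro _ ⟨i, X, rfl⟩
  have hX : X ∈ env E := by rw [hE.envTop]; exact Algebra.mem_top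
  have h1 : φ i X ∈ (env E).map (φ i) := ⟨X, hX, rfl⟩
  unfold env at h1 ⊢
  rw [AlgHom.map_adjoin] at h1
  refine Algebra.adjoin_mono ?_ h1
  rintro _ ⟨_, ⟨x, hx, rfl⟩, rfl⟩
  exact ⟨phiG φ i x, Subgroup.mem_iSup_of_mem i ⟨x, hx, rfl⟩, rfl⟩

theorem scalars_le_Rg (ht : 0 < t) (hE : E3Data 2 E Fo) : scalars (Fin n) F ≤ Rg φ E := by
  rintro _ ⟨c, rfl⟩
  have h3 : Units.map (Matrix.scalar (Fin 3) : F →+* Matrix (Fin 3) (Fin 3) F).toMonoidHom c ∈ E :=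
    hE.sc_le ⟨c, rfl⟩
  refine Subgroup.mem_iSup_of_mem ⟨0, ht⟩ ⟨_, h3, ?_⟩
  apply Units.ext
  show φ ⟨0, ht⟩ (Matrix.scalar (Fin 3) (c : F)) = Matrix.scalar (Fin n) (c : F)
  rw [Matrix.scalar_apply, Matrix.scalar_apply, ← Matrix.smul_one_eq_diagonal,
    ← Matrix.smul_one_eq_diagonal, map_smul, map_one]

end Cfsg.Agent.Lib.Helper6.X23
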