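import Cfsg.Agent.Lib.Helper6.X23.Defs

/-! X23 farm, piece ABc (helper81). -/

set_option autoImplicit false
set_option linter.unusedSectionVars false
set_option linter.unusedFintypeInType false

namespace Cfsg.Agent.Lib.Helper6.X23

open Cfsg Cfsg.Geo Matrix Cfsg.Agent.Lib.Helper13.Asch Cfsg.Agent.Lib.Helper5.SUAsch
  Cfsg.Agent.Lib.Helper9.AschU Cfsg.Agent.Lib.Helper21.Asch
open scoped Kronecker MatrixGroups

theorem ABc_mem_normalizer_of_conj_mem {Γ : Type*} [Group Γ] (H : Subgroup Γ) [Finite H] (X : Γ)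
    (h : ∀ g ∈ H, X * g * X⁻¹ ∈ H) : X ∈ Subgroup.normalizer (H : Set Γ) := by
  rw [Subgroup.mem_normalizer_iff]
  intro g
  refine ⟨h g, fun hg => ?_⟩
  let φ : H → H := fun a => ⟨X * a * X⁻¹, h a a.2⟩
  have hinj : Function.Injective φ := by
    intro a b hab
    have : X * a * X⁻¹ = X * b * X⁻¹ := congrArg Subtype.val hab
    exact Subtype.ext (by simpa using this)
  obtain ⟨a, ha⟩ := (Finite.injective_iff_surjective.1 hinj) ⟨_, hg⟩
  have h1 : X * a * X⁻¹ = X * g * X⁻¹ := congrArg Subtype.val ha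
  have h2 : (a : Γ) = g := by simpa using h1
  rw [← h2]; exact a.2

variable {F : Type*} [Field F] [Fintype F]

variable {n t : ℕ} {φ : Fin t → Matrix (Fin 3) (Fin 3) F →ₐ[F] Matrix (Fin n) (Fin n) F}
  {E : Subgroup (GL (Fin 3) F)} {Fo : GL (Fin 3) F}

theorem ABc_unitary (hF : Fintype.card F = 2 ^ 2) (hφ : Frame 2 φ) (h : GL (Fin n) F)
    (hh : h ∈ GU n F 2) (i j : Fin t) (g : GL (Fin 3) F)
    (hg : ∀ X : Matrix (Fin 3) (Fin 3) F,
      (h : Matrix (Fin n) (Fin n) F) * φ i X * ((h⁻¹ : GL (Fin n) F) : Matrix (Fin n) (Fin n) F) =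
        φ j ((g : Matrix (Fin 3) (Fin 3) F) * X * ((g⁻¹ : GL (Fin 3) F) : Matrix (Fin 3) (Fin 3) F))) :
    adj 2 (g : Matrix (Fin 3) (Fin 3) F) * (g : Matrix (Fin 3) (Fin 3) F) = 1 := by
  have hadjh : adj 2 (h : Matrix (Fin n) (Fin n) F) =
      ((h⁻¹ : GL (Fin n) F) : Matrix (Fin n) (Fin n) F) := adj_eq_inv hF hh
  have hadjh' : adj 2 ((h⁻¹ : GL (Fin n) F) : Matrix (Fin n) (Fin n) F) =
      (h : Matrix (Fin n) (Fin n) F) := by rw [← hadjh, adj_adj hF]
  obtain ⟨A, hA⟩ : ∃ A : Matrix (Fin 3) (Fin 3) F, A = (g : Matrix (Fin 3) (Fin 3) F) := ⟨_, rfl⟩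
  obtain ⟨B, hB⟩ : ∃ B : Matrix (Fin 3) (Fin 3) F,
      B = ((g⁻¹ : GL (Fin 3) F) : Matrix (Fin 3) (Fin 3) F) := ⟨_, rfl⟩
  have hAB : A * B = 1 := by rw [hA, hB, ← Units.val_mul, mul_inv_cancel, Units.val_one]
  have hBA : B * A = 1 := by rw [hA, hB, ← Units.val_mul, inv_mul_cancel, Units.val_one]
  rw [← hA]
  simp only [← hA, ← hB] at hg
  have key : ∀ Y, A * Y * B = adj 2 B * Y * adj 2 A := by
    intro Y
    apply hφ.inj j
    have h1 := hg Y
    have h2 := congrArg (adj 2) (hg (adj 2 Y))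
    rw [adj_mul hF, adj_mul hF, hadjh, hadjh', hφ.star, adj_adj hF, hφ.star, adj_mul hF,
      adj_mul hF, adj_adj hF] at h2
    rw [← h1, mul_assoc, h2, mul_assoc]
  have hgg : adj 2 A * adj 2 B = 1 := by rw [← adj_mul hF, hBA, adj_one hF]
  have comm : ∀ Y, (adj 2 A * A) * Y = Y * (adj 2 A * A) := by
    intro Y
    calc (adj 2 A * A) * Y = adj 2 A * (A * Y * (B * A)) := by rw [hBA, mul_one, mul_assoc]
      _ = adj 2 A * (A * Y * B) * A := by simp only [mul_assoc]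
      _ = adj 2 A * (adj 2 B * Y * adj 2 A) * A := by rw [key]
      _ = (adj 2 A * adj 2 B) * Y * (adj 2 A * A) := by simp only [mul_assoc]
      _ = Y * (adj 2 A * A) := by rw [hgg, one_mul]
  obtain ⟨c, hc⟩ := Matrix.mem_range_scalar_of_commute_single (M := adj 2 A * A)
    (fun a b _ => (comm _).symm)
  have hc' : adj 2 A * A = c • (1 : Matrix (Fin 3) (Fin 3) F) := by
    rw [← hc, Matrix.scalar_apply, Matrix.smul_one_eq_diagonal]
  have hself : adj 2 (adj 2 A * A) = adj 2 A * A := by rw [adj_mul hF, adj_adj hF]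
  rw [hc', adj_smul, adj_one hF] at hself
  have hcc : c ^ 2 = c := by
    have := congrFun (congrFun hself 0) 0
    simpa using this
  have hc0 : c ≠ 0 := by
    intro h0
    rw [h0, zero_smul] at hc'
    have h3 : (1 : Matrix (Fin 3) (Fin 3) F) = 0 := by
      calc (1 : Matrix (Fin 3) (Fin 3) F) = adj 2 A * adj 2 B := hgg.symm
        _ = adj 2 A * (A * B) * adj 2 B := by rw [hAB, mul_one]
        _ = (adj 2 A * A) * B * adj 2 B := by simp only [mul_assoc]
        _ = 0 := by rw [hc', zero_mul, zero_mul]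
    have := congrFun (congrFun h3 0) 0
    simp at this
  have hc1 : c = 1 := by
    have : c * (c - 1) = 0 := by ring_nf; rw [hcc]; ring
    rcases mul_eq_zero.mp this with h | h
    · exact absurd h hc0
    · exact sub_eq_zero.mp h
  rw [hc', hc1, one_smul]

theorem mem_normalizer_of_perm (hF : Fintype.card F = 2 ^ 2) (hφ : Frame 2 φ) (hE : E3Data 2 E Fo)
    (h : GL (Fin n) F) (hh : h ∈ GU n F 2) (σ : Equiv.Perm (Fin t))
    (hσ : ∀ i, ∃ g : GL (Fin 3) F, ∀ X : Matrix (Fin 3) (Fin 3) F,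
      (h : Matrix (Fin n) (Fin n) F) * φ i X * ((h⁻¹ : GL (Fin n) F) : Matrix (Fin n) (Fin n) F) =
        φ (σ i) ((g : Matrix (Fin 3) (Fin 3) F) * X * ((g⁻¹ : GL (Fin 3) F) : Matrix (Fin 3) (Fin 3) F))) :
    h ∈ subgroupNormalizer (Rg φ E) := by
  unfold subgroupNormalizer
  apply ABc_mem_normalizer_of_conj_mem
  have hle : Rg φ E ≤ (Rg φ E).comap (MulAut.conj h).toMonoidHom := by
    conv_lhs => unfold Rg
    apply iSup_le
    rintro i _ ⟨x, hx, rfl⟩
    obtain ⟨g, hg⟩ := hσ i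
    have hgu := ABc_unitary hF hφ h hh i (σ i) g hg
    have hmem := hE.nrm g hgu x hx
    show h * phiG φ i x * h⁻¹ ∈ Rg φ E
    have e : h * phiG φ i x * h⁻¹ = phiG φ (σ i) (g * x * g⁻¹) := by
      apply Units.ext
      simp only [Units.val_mul, phiG_coe]
      exact hg x
    rw [e]
    exact Subgroup.mem_iSup_of_mem (σ i) ⟨_, hmem, rfl⟩
  intro x hx
  exact hle hx

end Cfsg.Agent.Lib.Helper6.X23
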