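import Cfsg.Agent.Lib.Helper9.AschU.Base
import Cfsg.Agent.Lib.Helper13.Asch.Defs2
import Cfsg.Agent.Lib.Helper21.Asch.L14
import Cfsg.Agent.Lib.Helper12.Asch.K2b

/-!
# X23: tensor powers of the unitary 3-space over the field with four elements lie in class 6

Definitions: the data `E3Data` of the group `3^(1+2)` in `GU_3(2)`, tensor frames, the group `Rg`.
-/

set_option autoImplicit false

namespace Cfsg.Agent.Lib.Helper6.X23

open Cfsg Cfsg.Geo Matrix Cfsg.Agent.Lib.Helper13.Asch Cfsg.Agent.Lib.Helper9.AschU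
  Cfsg.Agent.Lib.Helper21.Asch
open scoped Kronecker MatrixGroups

variable {F : Type*} [Field F]

/-- the properties of `E = 3^(1+2)` inside `GU_3(2)` (`Fo` is a dummy parameter, kept for
compatibility with the pieces already written) -/
structure E3Data (q : ℕ) (E : Subgroup (GL (Fin 3) F)) (Fo : GL (Fin 3) F) : Prop where
  sc_le : scalars (Fin 3) F ≤ E
  comm : ∀ x ∈ E, ∀ y ∈ E, x * y * x⁻¹ * y⁻¹ ∈ scalars (Fin 3) F
  exp : ∀ x ∈ E, x ^ 3 = 1
  envTop : env E = ⊤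
  unit : ∀ x ∈ E, adj q (x : Matrix (Fin 3) (Fin 3) F) * (x : Matrix (Fin 3) (Fin 3) F) = 1
  nrm : ∀ g : GL (Fin 3) F, adj q (g : Matrix (Fin 3) (Fin 3) F) * (g : Matrix (Fin 3) (Fin 3) F) = 1 →
    ∀ x ∈ E, g * x * g⁻¹ ∈ E

variable {ι : Type} [Fintype ι] [DecidableEq ι] {t : ℕ}

/-- a tensor frame: `t` commuting copies of the `3 × 3` matrix algebra, compatible with adjoints,
and generating everything -/
structure Frame (q : ℕ) (φ : Fin t → Matrix (Fin 3) (Fin 3) F →ₐ[F] Matrix ι ι F) : Prop where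
  inj : ∀ i, Function.Injective (φ i)
  comm : ∀ i j, i ≠ j → ∀ X Y, φ i X * φ j Y = φ j Y * φ i X
  top : Algebra.adjoin F {M : Matrix ι ι F | ∃ i X, M = φ i X} = ⊤
  star : ∀ i X, adj q (φ i X) = φ i (adj q X)

/-- the `i`-th copy on invertible matrices -/
def phiG (φ : Fin t → Matrix (Fin 3) (Fin 3) F →ₐ[F] Matrix ι ι F) (i : Fin t) :
    GL (Fin 3) F →* GL ι F := Units.map ((φ i : Matrix (Fin 3) (Fin 3) F →ₐ[F] Matrix ι ι F) :
      Matrix (Fin 3) (Fin 3) F →* Matrix ι ι F)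

theorem phiG_coe (φ : Fin t → Matrix (Fin 3) (Fin 3) F →ₐ[F] Matrix ι ι F) (i : Fin t)
    (x : GL (Fin 3) F) : ((phiG φ i x : GL ι F) : Matrix ι ι F) = φ i (x : Matrix (Fin 3) (Fin 3) F) :=
  rfl

/-- the group generated by the copies of `E` -/
def Rg (φ : Fin t → Matrix (Fin 3) (Fin 3) F →ₐ[F] Matrix ι ι F) (E : Subgroup (GL (Fin 3) F)) :
    Subgroup (GL ι F) := ⨆ i, E.map (phiG φ i)

/-- `stdT i` as an algebra homomorphism -/
def stdA (i : Fin t) : Matrix (Fin 3) (Fin 3) F →ₐ[F] Matrix (Fin t → Fin 3) (Fin t → Fin 3) F :=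
  AlgHom.ofLinearMap
    { toFun := stdT i
      map_add' := stdT_add i
      map_smul' := fun c X => stdT_smul i c X }
    (stdT_one i) (fun X Y => stdT_mul i X Y)

/-- `embT e P i` as an algebra homomorphism -/
def embA (e : ι ≃ (Fin t → Fin 3)) (P : GL ι F) (i : Fin t) :
    Matrix (Fin 3) (Fin 3) F →ₐ[F] Matrix ι ι F :=
  (Cfsg.Agent.Lib.Helper12.Asch.cjA P).comp
    ((Matrix.reindexAlgEquiv F F e.symm).toAlgHom.comp (stdA i))

theorem embA_apply (e : ι ≃ (Fin t → Fin 3)) (P : GL ι F) (i : Fin t)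
    (X : Matrix (Fin 3) (Fin 3) F) : embA e P i X = embT e P i X := rfl

end Cfsg.Agent.Lib.Helper6.X23
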