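import Cfsg.Agent.Lib.Helper6.X23.Defs
import Cfsg.Agent.Lib.Helper70.AschU.U7t

/-! # X23 farm (helper6), piece [FR] (written by helper63) -/

set_option autoImplicit false

namespace Cfsg.Agent.Lib.Helper6.X23

open Cfsg Cfsg.Geo Matrix Cfsg.Agent.Lib.Helper13.Asch Cfsg.Agent.Lib.Helper5.SUAsch
  Cfsg.Agent.Lib.Helper9.AschU Cfsg.Agent.Lib.Helper21.Asch
open scoped Kronecker MatrixGroups

variable {F : Type*} [Field F] [Fintype F]

namespace FR

open Cfsg.Agent.Lib.Helper13 Cfsg.Agent.Lib.Helper70.AschU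

variable {n t : ℕ}

/-- conjugation by `P` after reindexing, as an algebra homomorphism -/
def Phi (e : Fin n ≃ (Fin t → Fin 3)) (P : GL (Fin n) F) :
    Matrix (Fin t → Fin 3) (Fin t → Fin 3) F →ₐ[F] Matrix (Fin n) (Fin n) F :=
  (Cfsg.Agent.Lib.Helper12.Asch.cjA P).comp (Matrix.reindexAlgEquiv F F e.symm).toAlgHom

omit [Fintype F] in
theorem Phi_apply (e : Fin n ≃ (Fin t → Fin 3)) (P : GL (Fin n) F)
    (M : Matrix (Fin t → Fin 3) (Fin t → Fin 3) F) :
    Phi e P M = P.1 * Matrix.reindexAlgEquiv F F e.symm M * (P⁻¹).1 := rfl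

omit [Fintype F] in
theorem embA_eq (e : Fin n ≃ (Fin t → Fin 3)) (P : GL (Fin n) F) (i : Fin t)
    (X : Matrix (Fin 3) (Fin 3) F) : embA e P i X = Phi e P (stdT i X) := rfl

omit [Fintype F] in
theorem Phi_surjective (e : Fin n ≃ (Fin t → Fin 3)) (P : GL (Fin n) F) :
    Function.Surjective (Phi e P) := by
  intro M
  refine ⟨(Matrix.reindexAlgEquiv F F e.symm).symm ((P⁻¹).1 * M * P.1), ?_⟩
  rw [Phi_apply, AlgEquiv.apply_symm_apply]
  have h1 : P.1 * (P⁻¹).1 = 1 := by rw [← Units.val_mul, mul_inv_cancel, Units.val_one]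
  calc P.1 * ((P⁻¹).1 * M * P.1) * (P⁻¹).1 = (P.1 * (P⁻¹).1) * M * (P.1 * (P⁻¹).1) := by
        simp only [mul_assoc]
    _ = M := by rw [h1, one_mul, mul_one]

omit [Fintype F] in
theorem Phi_injective (e : Fin n ≃ (Fin t → Fin 3)) (P : GL (Fin n) F) :
    Function.Injective (Phi e P) := by
  intro M M' h
  rw [Phi_apply, Phi_apply] at h
  have h1 : (P⁻¹).1 * P.1 = 1 := by rw [← Units.val_mul, inv_mul_cancel, Units.val_one]
  have key : ∀ N : Matrix (Fin n) (Fin n) F, (P⁻¹).1 * (P.1 * N * (P⁻¹).1) * P.1 = N := by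
    intro N
    calc (P⁻¹).1 * (P.1 * N * (P⁻¹).1) * P.1 = ((P⁻¹).1 * P.1) * N * ((P⁻¹).1 * P.1) := by
          simp only [mul_assoc]
      _ = N := by rw [h1, one_mul, mul_one]
  have h2 := congrArg (fun N => (P⁻¹).1 * N * P.1) h
  simp only [key] at h2
  exact (Matrix.reindexAlgEquiv F F e.symm).injective h2

omit [Fintype F] in
theorem stdT_comm {i j : Fin t} (hij : i ≠ j) (X Y : Matrix (Fin 3) (Fin 3) F) :
    stdT i X * stdT j Y = stdT j Y * stdT i X := by
  rw [stdT_eq_pureT, stdT_eq_pureT, ← pureT_mul, ← pureT_mul]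
  congr 1
  exact (Pi.mulSingle_commute (f := fun _ : Fin t => Matrix (Fin 3) (Fin 3) F) hij X Y)

omit [Fintype F] in
theorem pureT_mem (f : Fin t → Matrix (Fin 3) (Fin 3) F) :
    pureT f ∈ Algebra.adjoin F
      {M : Matrix (Fin t → Fin 3) (Fin t → Fin 3) F | ∃ i X, M = stdT i X} := by
  classical
  have key : ∀ s : Finset (Fin t), pureT (fun i => if i ∈ s then f i else 1) ∈ Algebra.adjoin F
      {M : Matrix (Fin t → Fin 3) (Fin t → Fin 3) F | ∃ i X, M = stdT i X} := by
    intro s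
    induction s using Finset.induction_on with
    | empty =>
      have : (fun i : Fin t => if i ∈ (∅ : Finset (Fin t)) then f i else 1) = 1 := by
        funext i; simp
      rw [this, pureT_one]
      exact one_mem _
    | insert a s ha ih =>
      have : (fun i : Fin t => if i ∈ insert a s then f i else 1)
          = Pi.mulSingle a (f a) * (fun i : Fin t => if i ∈ s then f i else 1) := by
        funext i
        by_cases hia : i = a
        · subst hia
          simp [ha]
        · simp [hia]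
      rw [this, pureT_mul, ← stdT_eq_pureT]
      exact mul_mem (Algebra.subset_adjoin ⟨a, f a, rfl⟩) ih
  have := key Finset.univ
  simpa using this

omit [Fintype F] in
theorem adjoin_stdT : Algebra.adjoin F
    {M : Matrix (Fin t → Fin 3) (Fin t → Fin 3) F | ∃ i X, M = stdT i X} = ⊤ := by
  rw [eq_top_iff]
  intro M _
  rw [Matrix.matrix_eq_sum_single M]
  refine Subalgebra.sum_mem _ (fun x _ => Subalgebra.sum_mem _ (fun y _ => ?_))
  have h1 : Matrix.single x y (M x y) = M x y • Matrix.single x y (1 : F) := by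
    rw [Matrix.smul_single, smul_eq_mul, mul_one]
  rw [h1, ← pureT_single]
  exact Subalgebra.smul_mem _ (pureT_mem _) _

omit [Fintype F] in
theorem adj_reindex {q : ℕ} (e : Fin n ≃ (Fin t → Fin 3))
    (M : Matrix (Fin t → Fin 3) (Fin t → Fin 3) F) :
    adj q (Matrix.reindexAlgEquiv F F e.symm M) = Matrix.reindexAlgEquiv F F e.symm (adj q M) := rfl

omit [Fintype F] in
theorem adj_permT {q : ℕ} (hq : q ≠ 0) (σ : Equiv.Perm (Fin t)) :
    adj q (permT σ : Matrix (Fin t → Fin 3) (Fin t → Fin 3) F) = permT σ.symm := by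
  ext x y
  simp only [adj, permT]
  have hiff : x = y ∘ σ ↔ y = x ∘ σ.symm := by
    constructor
    · rintro rfl; ext j; simp
    · rintro rfl; ext j; simp
  by_cases h : x = y ∘ σ
  · rw [if_pos h, if_pos (hiff.1 h), one_pow]
  · rw [if_neg h, if_neg (fun h' => h (hiff.2 h')), zero_pow hq]

theorem mem_GU (hF : Fintype.card F = 2 ^ 2) (e : Fin n ≃ (Fin t → Fin 3)) (P : GL (Fin n) F)
    (hform : IsTensorPowerFormStructure (fun x : F => x ^ 2) (hermForm n F 2) (hermForm 3 F 2) e P) :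
    P ∈ GU n F 2 := by
  obtain ⟨c, hc, h⟩ := hform
  have h1 : ∀ u v : Fin n → F, hermForm n F 2 (P.1 *ᵥ u) (P.1 *ᵥ v) = c * hermForm n F 2 u v := by
    intro u v
    have h2 := h (u ∘ e.symm) (v ∘ e.symm)
    have e1 : (u ∘ e.symm) ∘ e = u := by ext j; simp
    have e2 : (v ∘ e.symm) ∘ e = v := by ext j; simp
    rw [e1, e2] at h2
    rw [h2, gramMatrix_hermForm (by norm_num)]
    congr 1
    have h3 : ∀ a b : Fin t → Fin 3, ∏ i, (1 : Matrix (Fin 3) (Fin 3) F) (a i) (b i)
        = if a = b then 1 else 0 := by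
      intro a b
      have := congrFun (congrFun (pureT_one (F := F) (m := 3) (t := t)) a) b
      rw [pureT_apply, Matrix.one_apply] at this
      exact this
    simp only [h3, mul_ite, mul_one, mul_zero, ite_mul, zero_mul, Finset.sum_ite_eq,
      Finset.mem_univ, if_true]
    unfold hermForm
    rw [← Equiv.sum_comp e]
    simp
  have hc1 : ∀ i : Fin n, c = 1 := by
    intro i
    have h2 := h1 (Pi.single i 1) (Pi.single i 1)
    rw [hermForm_single_left, Pi.single_eq_same, one_pow, mul_one] at h2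
    have h3 := hermForm_swap hF (P.1 *ᵥ Pi.single i 1) (P.1 *ᵥ Pi.single i 1)
    rw [h2] at h3
    have h4 : c * (c - 1) = 0 := by linear_combination h3
    rcases mul_eq_zero.1 h4 with h5 | h5
    · exact absurd h5 hc
    · exact sub_eq_zero.1 h5
  intro u v
  show hermForm n F 2 (P.1 *ᵥ u) (P.1 *ᵥ v) = hermForm n F 2 u v
  rw [h1]
  rcases Nat.eq_zero_or_pos n with rfl | hn
  · simp [hermForm]
  · rw [hc1 ⟨0, hn⟩, one_mul]

theorem adj_Phi (hF : Fintype.card F = 2 ^ 2) (e : Fin n ≃ (Fin t → Fin 3)) (P : GL (Fin n) F)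
    (hP : P ∈ GU n F 2) (M : Matrix (Fin t → Fin 3) (Fin t → Fin 3) F) :
    adj 2 (Phi e P M) = Phi e P (adj 2 M) := by
  rw [Phi_apply, Phi_apply, adj_mul hF, adj_mul hF, adj_eq_inv hF hP,
    adj_eq_inv hF (inv_mem hP), inv_inv, adj_reindex, mul_assoc]

end FR

variable {n t : ℕ}

open FR in
theorem frame_embA (hF : Fintype.card F = 2 ^ 2) (e : Fin n ≃ (Fin t → Fin 3)) (P : GL (Fin n) F)
    (hform : IsTensorPowerFormStructure (fun x : F => x ^ 2) (hermForm n F 2) (hermForm 3 F 2) e P) :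
    Frame 2 (embA e P) := by
  have hP := mem_GU hF e P hform
  refine ⟨?_, ?_, ?_, ?_⟩
  · intro i X Y h
    rw [embA_eq, embA_eq] at h
    exact stdT_injective i (Phi_injective e P h)
  · intro i j hij X Y
    rw [embA_eq, embA_eq, ← map_mul, ← map_mul, stdT_comm hij]
  · have h1 : {M : Matrix (Fin n) (Fin n) F | ∃ i X, M = embA e P i X}
        = (Phi e P) '' {M : Matrix (Fin t → Fin 3) (Fin t → Fin 3) F | ∃ i X, M = stdT i X} := by
      ext M
      constructor
      · rintro ⟨i, X, rfl⟩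
        exact ⟨stdT i X, ⟨i, X, rfl⟩, rfl⟩
      · rintro ⟨_, ⟨i, X, rfl⟩, rfl⟩
        exact ⟨i, X, rfl⟩
    rw [h1, ← AlgHom.map_adjoin, adjoin_stdT, Algebra.map_top, AlgHom.range_eq_top]
    exact Phi_surjective e P
  · intro i X
    rw [embA_eq, embA_eq, adj_Phi hF e P hP, Cfsg.Agent.Lib.Helper70.AschU.adj_stdT hF]

end Cfsg.Agent.Lib.Helper6.X23
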