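import Cfsg.Agent.Lib.Helper6.X23.Defs

/-! # X23 farm (helper6), piece [MONO] (written by helper63) -/

set_option autoImplicit false

namespace Cfsg.Agent.Lib.Helper6.X23

open Cfsg Cfsg.Geo Matrix Cfsg.Agent.Lib.Helper13.Asch Cfsg.Agent.Lib.Helper5.SUAsch
  Cfsg.Agent.Lib.Helper9.AschU Cfsg.Agent.Lib.Helper21.Asch
open scoped Kronecker MatrixGroups

variable {F : Type*} [Field F] [Fintype F]

variable {n : ℕ}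

theorem ucls_mono {q : ℕ} {H N : Subgroup (GL (Fin n) F)} (hHN : H ≤ N) (h : UCls n q N) :
    UCls n q H := by
  rcases h with ⟨W, h0, h1, h⟩ | ⟨W, h0, h1, h2, h⟩ | ⟨t, k, D, hD, h⟩ | ⟨k, D, hk, hD, hs, h⟩ |
    ⟨F₀, r, P, hr, ho, hc, hf, h⟩ | ⟨F₀, P, ho, hc, hf, h⟩ | ⟨F₀, P, ζ, he, hc, h0, h1, hf, ha, h⟩ |
    ⟨r, R, p, e, k, h1, h2, h3, h4, h5, h6, h7, h⟩ | ⟨r, K, hr, ho, hK, ha, h⟩ |
    ⟨a, b, e, P, f₁, f₂, ha, hb, h1, h2, h3, h⟩ | ⟨k, t, e, P, f₁, hk, ht, hx, h1, h2, h⟩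
  · exact Or.inl ⟨W, h0, h1, hHN.trans h⟩
  · exact Or.inr (Or.inl ⟨W, h0, h1, h2, hHN.trans h⟩)
  · exact Or.inr (Or.inr (Or.inl ⟨t, k, D, hD, hHN.trans h⟩))
  · exact Or.inr (Or.inr (Or.inr (Or.inl ⟨k, D, hk, hD, hs, hHN.trans h⟩)))
  · exact Or.inr (Or.inr (Or.inr (Or.inr (Or.inl ⟨F₀, r, P, hr, ho, hc, hf, hHN.trans h⟩))))
  · exact Or.inr (Or.inr (Or.inr (Or.inr (Or.inr (Or.inl ⟨F₀, P, ho, hc, hf, hHN.trans h⟩)))))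
  · exact Or.inr (Or.inr (Or.inr (Or.inr (Or.inr (Or.inr
      (Or.inl ⟨F₀, P, ζ, he, hc, h0, h1, hf, ha, hHN.trans h⟩))))))
  · exact Or.inr (Or.inr (Or.inr (Or.inr (Or.inr (Or.inr (Or.inr
      (Or.inl ⟨r, R, p, e, k, h1, h2, h3, h4, h5, h6, h7, hHN.trans h⟩)))))))
  · exact Or.inr (Or.inr (Or.inr (Or.inr (Or.inr (Or.inr (Or.inr (Or.inr
      (Or.inl ⟨r, K, hr, ho, hK, ha, hHN.trans h⟩))))))))
  · exact Or.inr (Or.inr (Or.inr (Or.inr (Or.inr (Or.inr (Or.inr (Or.inr (Or.inr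
      (Or.inl ⟨a, b, e, P, f₁, f₂, ha, hb, h1, h2, h3, hHN.trans h⟩)))))))))
  · exact Or.inr (Or.inr (Or.inr (Or.inr (Or.inr (Or.inr (Or.inr (Or.inr (Or.inr
      (Or.inr ⟨k, t, e, P, f₁, hk, ht, hx, h1, h2, hHN.trans h⟩)))))))))

end Cfsg.Agent.Lib.Helper6.X23
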