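import Cfsg.Agent.Lib.Helper6.X23.Defs

/-! # X23 farm (helper6), piece [WR] (written by helper63) -/

set_option autoImplicit false

namespace Cfsg.Agent.Lib.Helper6.X23

open Cfsg Cfsg.Geo Matrix Cfsg.Agent.Lib.Helper13.Asch Cfsg.Agent.Lib.Helper5.SUAsch
  Cfsg.Agent.Lib.Helper9.AschU Cfsg.Agent.Lib.Helper21.Asch
open scoped Kronecker MatrixGroups

variable {F : Type*} [Field F]

namespace WR

theorem inv_val_of_mul {κ : Type*} [Fintype κ] [DecidableEq κ] (w : GL κ F) (B : Matrix κ κ F)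
    (h : (w : Matrix κ κ F) * B = 1) : ((w⁻¹ : GL κ F) : Matrix κ κ F) = B := by
  calc ((w⁻¹ : GL κ F) : Matrix κ κ F) = ((w⁻¹ : GL κ F) : Matrix κ κ F) * ((w : Matrix κ κ F) * B) := by
        rw [h, mul_one]
    _ = B := by rw [← mul_assoc, ← Units.val_mul, inv_mul_cancel, Units.val_one, one_mul]

theorem std_perm {m t : ℕ} (w : GL (Fin t → Fin m) F) (hw : w ∈ tensorWreathStandard m t F) :
    ∃ σ : Equiv.Perm (Fin t), ∀ i, ∃ g : GL (Fin m) F, ∀ X : Matrix (Fin m) (Fin m) F,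
      w.1 * stdT i X * (w⁻¹).1 = stdT (σ i) (g.1 * X * (g⁻¹).1) := by
  unfold tensorWreathStandard at hw
  induction hw using Subgroup.closure_induction with
  | mem w hw =>
    rcases hw with ⟨gs, hgs⟩ | ⟨σ, hσ⟩
    · have h1 : w.1 = pureT (fun i => (gs i).1) := by
        ext x y
        rw [pureT_apply]
        exact hgs x y
      have h2 : (w⁻¹).1 = pureT (fun i => ((gs i)⁻¹).1) := by
        apply inv_val_of_mul
        rw [h1, ← pureT_mul, ← pureT_one]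
        congr 1
        ext1 j
        simp only [Pi.mul_apply, Pi.one_apply]
        rw [← Units.val_mul, mul_inv_cancel, Units.val_one]
      refine ⟨1, fun i => ⟨gs i, fun X => ?_⟩⟩
      rw [h1, h2, pureT_conj _ _ (fun j => by
        rw [← Units.val_mul, mul_inv_cancel, Units.val_one])]
      rfl
    · have h1 : w.1 = permT σ := by
        ext x y
        exact hσ x y
      have h2 : (w⁻¹).1 = permT σ.symm := by
        apply inv_val_of_mul
        rw [h1, permT_mul_permT_symm]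
      refine ⟨σ, fun i => ⟨1, fun X => ?_⟩⟩
      rw [h1, h2, permT_conj]
      simp
  | one =>
    refine ⟨1, fun i => ⟨1, fun X => ?_⟩⟩
    simp
  | mul a b _ _ iha ihb =>
    obtain ⟨σa, ha⟩ := iha
    obtain ⟨σb, hb⟩ := ihb
    refine ⟨σa * σb, fun i => ?_⟩
    obtain ⟨gb, hgb⟩ := hb i
    obtain ⟨ga, hga⟩ := ha (σb i)
    refine ⟨ga * gb, fun X => ?_⟩
    have e : (a * b).1 * stdT i X * ((a * b)⁻¹).1 = a.1 * (b.1 * stdT i X * (b⁻¹).1) * (a⁻¹).1 := by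
      rw [_root_.mul_inv_rev, Units.val_mul, Units.val_mul]
      simp only [mul_assoc]
    rw [e, hgb, hga, _root_.mul_inv_rev, Units.val_mul, Units.val_mul, Equiv.Perm.mul_apply]
    simp only [mul_assoc]
  | inv a _ iha =>
    obtain ⟨σ, ha⟩ := iha
    refine ⟨σ⁻¹, fun j => ?_⟩
    obtain ⟨g, hg⟩ := ha (σ⁻¹ j)
    refine ⟨g⁻¹, fun X => ?_⟩
    have h1 := hg ((g⁻¹).1 * X * g.1)
    have h2 : g.1 * ((g⁻¹).1 * X * g.1) * (g⁻¹).1 = X := by
      calc g.1 * ((g⁻¹).1 * X * g.1) * (g⁻¹).1 = (g.1 * (g⁻¹).1) * X * (g.1 * (g⁻¹).1) := by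
            simp only [mul_assoc]
        _ = X := by rw [← Units.val_mul, mul_inv_cancel, Units.val_one, one_mul, mul_one]
    rw [h2, show σ (σ⁻¹ j) = j from by simp] at h1
    rw [← h1, inv_inv, inv_inv]
    calc (a⁻¹).1 * (a.1 * stdT (σ⁻¹ j) ((g⁻¹).1 * X * g.1) * (a⁻¹).1) * a.1
        = ((a⁻¹).1 * a.1) * stdT (σ⁻¹ j) ((g⁻¹).1 * X * g.1) * ((a⁻¹).1 * a.1) := by
          simp only [mul_assoc]
      _ = stdT (σ⁻¹ j) ((g⁻¹).1 * X * g.1) := by
          rw [← Units.val_mul, inv_mul_cancel, Units.val_one, one_mul, mul_one]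

end WR

variable {n t : ℕ}

theorem wreath_perm (e : Fin n ≃ (Fin t → Fin 3)) (P h : GL (Fin n) F)
    (hh : h ∈ tensorWreathSubgroup 3 t e P) :
    ∃ σ : Equiv.Perm (Fin t), ∀ i, ∃ g : GL (Fin 3) F, ∀ X : Matrix (Fin 3) (Fin 3) F,
      (h : Matrix (Fin n) (Fin n) F) * embA e P i X * ((h⁻¹ : GL (Fin n) F) : Matrix (Fin n) (Fin n) F) =
        embA e P (σ i) ((g : Matrix (Fin 3) (Fin 3) F) * X *
          ((g⁻¹ : GL (Fin 3) F) : Matrix (Fin 3) (Fin 3) F)) := by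
  unfold tensorWreathSubgroup at hh
  obtain ⟨_, ⟨w, hw, rfl⟩, rfl⟩ := hh
  obtain ⟨σ, hσ⟩ := WR.std_perm w hw
  refine ⟨σ, fun i => ?_⟩
  obtain ⟨g, hg⟩ := hσ i
  refine ⟨g, fun X => ?_⟩
  rw [embA_apply, embA_apply]
  unfold embT
  rw [← hg X]
  set ρ := Matrix.reindexAlgEquiv F F e.symm with hρ
  have e3 : ∀ S : Matrix (Fin t → Fin 3) (Fin t → Fin 3) F,
      Matrix.reindex e.symm e.symm S = ρ S := fun S => rfl
  have e1 : (((MulAut.conj P).toMonoidHom ((glReindex e.symm).toMonoidHom w) : GL (Fin n) F) :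
      Matrix (Fin n) (Fin n) F) = P.1 * ρ w.1 * (P⁻¹).1 := rfl
  have e2 : ((((MulAut.conj P).toMonoidHom ((glReindex e.symm).toMonoidHom w))⁻¹ : GL (Fin n) F) :
      Matrix (Fin n) (Fin n) F) = P.1 * ρ (w⁻¹).1 * (P⁻¹).1 := by
    rw [← map_inv, ← map_inv]
    rfl
  rw [e1, e2, e3, e3, map_mul, map_mul]
  have hP : (P⁻¹).1 * P.1 = 1 := by rw [← Units.val_mul, inv_mul_cancel, Units.val_one]
  calc P.1 * ρ w.1 * (P⁻¹).1 * (P.1 * ρ (stdT i X) * (P⁻¹).1) * (P.1 * ρ (w⁻¹).1 * (P⁻¹).1)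
      = P.1 * ρ w.1 * ((P⁻¹).1 * P.1) * ρ (stdT i X) * ((P⁻¹).1 * P.1) * ρ (w⁻¹).1 * (P⁻¹).1 := by
        simp only [mul_assoc]
    _ = P.1 * (ρ w.1 * ρ (stdT i X) * ρ (w⁻¹).1) * (P⁻¹).1 := by
        rw [hP]; simp only [mul_one, mul_assoc]

end Cfsg.Agent.Lib.Helper6.X23
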