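import Cfsg.Agent.Lib.Helper6.X23.T3
import Cfsg.Agent.Lib.Helper6.X23.ABa
import Cfsg.Agent.Lib.Helper6.X23.ABc
import Cfsg.Agent.Lib.Helper6.X23.FR
import Cfsg.Agent.Lib.Helper6.X23.WR
import Cfsg.Agent.Lib.Helper9.AschU.XMin

/-! # X23: assembly -/

set_option autoImplicit false

namespace Cfsg.Agent.Lib.Helper6.X23

open Cfsg Cfsg.Geo Matrix Cfsg.Agent.Lib.Helper13.Asch Cfsg.Agent.Lib.Helper5.SUAsch
  Cfsg.Agent.Lib.Helper9.AschU Cfsg.Agent.Lib.Helper21.Asch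
open scoped Kronecker MatrixGroups

variable {F : Type*} [Field F] [Fintype F] {n q : ℕ}

/-- X23 -/
theorem ucls_of_E23 (hF : Fintype.card F = q ^ 2) {H : Subgroup (GL (Fin n) F)}
    (hH : H ≤ GU n F q) (h : E23 n q H) : UCls n q H := by
  obtain ⟨rfl, t, e, P, ht, hform, hHW⟩ := h
  obtain ⟨E, Fo, hE⟩ := exists_E3Data hF
  have hφ := frame_embA hF e P hform
  have ht0 : 0 < t := by omega
  have hn : 2 ≤ n := by
    have h1 := Fintype.card_congr e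
    rw [Fintype.card_fin, Fintype.card_fun, Fintype.card_fin, Fintype.card_fin] at h1
    rw [h1]
    calc 2 ≤ 3 ^ 1 := by norm_num
      _ ≤ 3 ^ t := Nat.pow_le_pow_right (by norm_num) ht0
  refine ucls_of_exp3 hF rfl hn hH (Rg_le_GU hF hφ hE) (Rg_comm hφ hE) (Rg_env hφ hE)
    (Rg_exp hF hφ hE) (scalars_le_Rg ht0 hE) ?_
  intro g hg
  obtain ⟨σ, hσ⟩ := wreath_perm e P g (hHW hg)
  exact mem_normalizer_of_perm hF hφ hE g (hH hg) σ hσ

end Cfsg.Agent.Lib.Helper6.X23
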