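import Cfsg.Agent.Lib.Helper6.X23.Defs
import Cfsg.Agent.Lib.Helper60.X23.Pauli

/-! # X23, piece T3: the group `3^(1+2)` in `GU_3(2)` (from helper60's Pauli group) -/

set_option autoImplicit false

namespace Cfsg.Agent.Lib.Helper6.X23

open Cfsg Cfsg.Geo Matrix Cfsg.Agent.Lib.Helper13.Asch Cfsg.Agent.Lib.Helper5.SUAsch
  Cfsg.Agent.Lib.Helper9.AschU Cfsg.Agent.Lib.Helper21.Asch Cfsg.Agent.Lib.Helper60.X23
open scoped Kronecker MatrixGroups

variable {F : Type*} [Field F]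

/-- the Pauli group as a subgroup -/
def pauliE : Subgroup (GL (Fin 3) F) where
  carrier := {x | InE (x : Matrix (Fin 3) (Fin 3) F)}
  mul_mem' := fun {a b} ha hb => by
    show InE ((a * b : GL (Fin 3) F) : Matrix (Fin 3) (Fin 3) F)
    rw [Units.val_mul]
    exact InE.mul ha hb
  one_mem' := InE.one
  inv_mem' := fun {a} ha => by
    show InE ((a⁻¹ : GL (Fin 3) F) : Matrix (Fin 3) (Fin 3) F)
    have h3 : a * a * a = 1 := by
      apply Units.ext
      rw [Units.val_mul, Units.val_mul]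
      exact InE.cube ha
    have h4 : a⁻¹ = a * a := by
      rw [inv_eq_iff_mul_eq_one, ← mul_assoc]
      exact h3
    rw [h4, Units.val_mul]
    exact InE.mul ha ha

theorem mem_pauliE {x : GL (Fin 3) F} :
    x ∈ (pauliE : Subgroup (GL (Fin 3) F)) ↔ InE (x : Matrix (Fin 3) (Fin 3) F) := Iff.rfl

/-- a Pauli matrix as an invertible matrix -/
theorem exists_gl_of_InE {y : Matrix (Fin 3) (Fin 3) F} (hy : InE y) :
    ∃ x : GL (Fin 3) F, x ∈ (pauliE : Subgroup (GL (Fin 3) F)) ∧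
      (x : Matrix (Fin 3) (Fin 3) F) = y := by
  have h3 := InE.cube hy
  refine ⟨⟨y, y * y, by rw [← Matrix.mul_assoc]; exact h3, h3⟩, hy, rfl⟩

variable [Fintype F]

theorem single_mem_env (hF : Fintype.card F = 2 ^ 2) (a j0 : Fin 3) :
    Matrix.single (j0 + a) j0 (1 : F) ∈ env (pauliE : Subgroup (GL (Fin 3) F)) := by
  obtain ⟨w, hw1, hw⟩ := exists_w hF
  have hmem : ∀ r : F, r ^ 3 = 1 → pauli a 1 r ∈ env (pauliE : Subgroup (GL (Fin 3) F)) := by
    intro r hr
    obtain ⟨x, hx, hxe⟩ := exists_gl_of_InE (⟨a, 1, r, one_pow _, hr, rfl⟩ : InE (pauli a 1 r))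
    rw [← hxe]
    exact Cfsg.Agent.Lib.Helper12.Asch.mem_env hx
  have key : Matrix.single (j0 + a) j0 (1 : F) =
      ∑ k : Fin 3, (w ^ (2 * (j0 : ℕ) * (k : ℕ))) • pauli a 1 (w ^ (k : ℕ)) := by
    ext i j
    rw [Matrix.sum_apply]
    simp only [Matrix.smul_apply, pauli, smul_eq_mul, one_mul]
    by_cases hij : i = j + a
    · simp only [if_pos hij]
      have h1 : ∀ k : Fin 3, w ^ (2 * (j0 : ℕ) * (k : ℕ)) * (w ^ (k : ℕ)) ^ (j : ℕ) =
          (w ^ ((j : ℕ) + 2 * (j0 : ℕ))) ^ (k : ℕ) := by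
        intro k
        rw [← pow_mul, ← pow_mul, ← pow_add]
        congr 1
        ring
      simp_rw [h1]
      rw [geo_sum hF hw1 hw]
      have hd : ∀ i j : Fin 3, (3 ∣ (i : ℕ) + 2 * (j : ℕ)) ↔ i = j := by decide
      simp only [hd]
      by_cases hj : j = j0
      · subst hj
        rw [hij, Matrix.single_apply_same, if_pos rfl]
      · rw [if_neg hj, Matrix.single_apply_of_col_ne _ _ (Ne.symm hj)]
    · simp only [if_neg hij, mul_zero, Finset.sum_const_zero]
      by_cases hj : j = j0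
      · subst hj
        rw [Matrix.single_apply_of_row_ne (Ne.symm hij)]
      · rw [Matrix.single_apply_of_col_ne _ _ (Ne.symm hj)]
  rw [key]
  refine Subalgebra.sum_mem _ fun k _ => Subalgebra.smul_mem _ (hmem _ (pow_pow_three hw _)) _

theorem env_pauliE (hF : Fintype.card F = 2 ^ 2) :
    env (pauliE : Subgroup (GL (Fin 3) F)) = ⊤ := by
  rw [eq_top_iff]
  intro M _
  rw [Matrix.matrix_eq_sum_single M]
  refine Subalgebra.sum_mem _ fun i _ => Subalgebra.sum_mem _ fun j _ => ?_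
  have h1 : Matrix.single i j (M i j) = (M i j) • Matrix.single (j + (i - j)) j (1 : F) := by
    rw [Matrix.smul_single, smul_eq_mul, mul_one, add_sub_cancel]
  rw [h1]
  exact Subalgebra.smul_mem _ (single_mem_env hF _ _) _

theorem exists_E3Data (hF : Fintype.card F = 2 ^ 2) :
    ∃ (E : Subgroup (GL (Fin 3) F)) (Fo : GL (Fin 3) F), E3Data 2 E Fo := by
  refine ⟨pauliE, 1, ?_, ?_, ?_, env_pauliE hF, ?_, ?_⟩
  · intro g hg
    obtain ⟨c, hc⟩ := (mem_scalars_iff g).1 hg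
    rw [mem_pauliE, hc]
    exact InE.smul InE.one (f4_cube hF c.ne_zero)
  · intro x hx y hy
    obtain ⟨z, hz, hxy⟩ := InE.comm hx hy
    have hz0 : z ≠ 0 := by
      rintro rfl
      simp at hz
    rw [mem_scalars_iff]
    refine ⟨Units.mk0 z hz0, ?_⟩
    have h1 : x * y * x⁻¹ * y⁻¹ * (y * x) = x * y := by group
    have h2 : ((x * y * x⁻¹ * y⁻¹ : GL (Fin 3) F) : Matrix (Fin 3) (Fin 3) F) *
        ((y * x : GL (Fin 3) F) : Matrix (Fin 3) (Fin 3) F) =
        (z • (1 : Matrix (Fin 3) (Fin 3) F)) * ((y * x : GL (Fin 3) F) : Matrix (Fin 3) (Fin 3) F) := by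
      rw [← Units.val_mul, h1, Units.val_mul, hxy, Matrix.smul_mul, Matrix.one_mul, Units.val_mul]
    exact (Units.isUnit (y * x)).mul_right_cancel h2
  · intro x hx
    apply Units.ext
    rw [pow_succ, pow_two, Units.val_mul, Units.val_mul]
    exact InE.cube hx
  · intro x hx
    exact InE.unitary hx
  · intro g hg x hx
    rw [mem_pauliE, Units.val_mul, Units.val_mul]
    have h1 : ((g⁻¹ : GL (Fin 3) F) : Matrix (Fin 3) (Fin 3) F) =
        adj 2 (g : Matrix (Fin 3) (Fin 3) F) := by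
      have h2 : adj 2 (g : Matrix (Fin 3) (Fin 3) F) * (g : Matrix (Fin 3) (Fin 3) F) *
          ((g⁻¹ : GL (Fin 3) F) : Matrix (Fin 3) (Fin 3) F) =
          ((g⁻¹ : GL (Fin 3) F) : Matrix (Fin 3) (Fin 3) F) := by rw [hg, Matrix.one_mul]
      rw [← h2, Matrix.mul_assoc, ← Units.val_mul, mul_inv_cancel, Units.val_one, Matrix.mul_one]
    rw [h1]
    exact InE.conj hF hg hx

end Cfsg.Agent.Lib.Helper6.X23
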